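import Cfsg.Agent.FGS.AH.L1

/-! An element of order nine that is self-centralizing: weight vectors. -/

set_option autoImplicit false

namespace CL.AH.NineA2

open Subgroup Cfsg

variable {r : ℕ} [Fact r.Prime] {H : Type*} [Group H] [Finite H] {V : Type*} [AddCommGroup V] [Module (ZMod r) V]
  [Finite V] {ρ : Representation (ZMod r) H V} {B : V →ₗ[ZMod r] V →ₗ[ZMod r] ZMod r}

omit [Finite V] in
theorem two (h5 : 5 ≤ r) {v : V} (h : v + v = 0) : v = 0 := by
  have n : (2 : ZMod r) ≠ 0 := by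
    have := LinB.nz (r := r) h5 (n := 2) (by norm_num) (by norm_num)
    simpa using this
  rw [← two_smul (ZMod r)] at h
  exact (smul_eq_zero.1 h).resolve_left n

omit [Finite H] [Finite V] in
theorem wt_indep (h5 : 5 ≤ r) {ι : Type*} {A : Subgroup H} {w : V} {u : ι → V} (s : Finset ι)
    (hu : ∀ i ∈ s, ∀ x ∈ A, ρ x (u i) = u i ∨ ρ x (u i) = - u i)
    (hd : ∀ i ∈ s, ∃ x ∈ A, (ρ x w = w ∧ ρ x (u i) = - u i) ∨ (ρ x w = - w ∧ ρ x (u i) = u i))
    (h0 : w + ∑ i ∈ s, u i = 0) : w = 0 := by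
  classical
  induction s using Finset.strongInduction with
  | H s ih =>
  rcases s.eq_empty_or_nonempty with rfl | ⟨i₀, hi⟩
  · simpa using h0
  obtain ⟨x, hx, e⟩ := hd i₀ hi
  have h1 : ρ x w + ∑ i ∈ s, ρ x (u i) = 0 := by rw [← map_sum, ← map_add, h0, map_zero]
  rcases e with ⟨e1, e2⟩ | ⟨e1, e2⟩
  · refine ih (s.filter fun i => ¬ ρ x (u i) = - u i) (Finset.filter_ssubset.2 ⟨i₀, hi, not_not.2 e2⟩)
      (fun i m => hu i (Finset.mem_filter.1 m).1) (fun i m => hd i (Finset.mem_filter.1 m).1) (two h5 ?_)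
    have : ∑ i ∈ s, u i + ∑ i ∈ s, ρ x (u i) = ∑ i ∈ s.filter (fun i => ¬ ρ x (u i) = - u i), u i +
        ∑ i ∈ s.filter (fun i => ¬ ρ x (u i) = - u i), u i := by
      rw [Finset.sum_filter, ← Finset.sum_add_distrib, ← Finset.sum_add_distrib]
      refine Finset.sum_congr rfl fun i m => ?_
      by_cases c : ρ x (u i) = - u i
      · simp [c]
      · rw [if_pos c, (hu i m x hx).resolve_right c]
    rw [add_add_add_comm, ← this]
    rw [e1] at h1
    rw [add_add_add_comm, h0, h1, add_zero]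
  · refine ih (s.filter fun i => ¬ ρ x (u i) = u i) (Finset.filter_ssubset.2 ⟨i₀, hi, not_not.2 e2⟩)
      (fun i m => hu i (Finset.mem_filter.1 m).1) (fun i m => hd i (Finset.mem_filter.1 m).1) (two h5 ?_)
    have : ∑ i ∈ s, u i - ∑ i ∈ s, ρ x (u i) = ∑ i ∈ s.filter (fun i => ¬ ρ x (u i) = u i), u i +
        ∑ i ∈ s.filter (fun i => ¬ ρ x (u i) = u i), u i := by
      rw [Finset.sum_filter, ← Finset.sum_add_distrib, ← Finset.sum_sub_distrib]
      refine Finset.sum_congr rfl fun i m => ?_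
      by_cases c : ρ x (u i) = u i
      · simp [c]
      · rw [if_pos c, (hu i m x hx).resolve_left c, sub_neg_eq_add]
    rw [add_add_add_comm, ← this]
    rw [e1] at h1
    rw [eq_neg_of_add_eq_zero_right h0, eq_neg_of_add_eq_zero_right h1]
    abel

theorem nine_qd (h : Md ρ) (h7 : 7 ≤ r) {t : H} (h9 : orderOf t = 9) (hf : Fpf ρ t) (hc : cz t = 9)
    (hn : ∀ A : Subgroup H, (∀ x ∈ A, x * x = 1) → (∀ x ∈ A, t * x * t⁻¹ ∈ A) → ∀ x ∈ A, t ^ 3 * x = x * t ^ 3) :
    Qd ρ (t ^ 3) := by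
  classical
  have h5 : 5 ≤ r := by omega
  have : Fact (Nat.Prime 2) := ⟨Nat.prime_two⟩
  obtain ⟨B, hB⟩ := h.exists_fm h5
  have sp := h.sp hB
  have t9 : t ^ 9 = 1 := by rw [← h9, pow_orderOf_eq_one]
  let A : Subgroup H := pCore 2 H ⊓ centralizer (pCore 2 H)
  have nA : A.Normal := inferInstance
  have cA : ∀ a ∈ A, ∀ b ∈ A, a * b = b * a := fun a ha b hb => hb.2 a ha.1
  have a2 := sp.sq_eq_one h7 nA cA
  have od : ∀ x : H, x * x = 1 → x * t = t * x → x = 1 := fun x x2 c => by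
    have d := orderOf_dvd_cz c
    rw [hc] at d
    exact orderOf_eq_one_iff.1 (Nat.eq_one_of_dvd_coprimes (by norm_num : Nat.Coprime 9 2) d
      (orderOf_dvd_of_pow_eq_one ((pow_two x).trans x2)))
  have A1 : ∃ y ∈ A, y ≠ 1 := by
    by_cases b : pCore 2 H = ⊥
    · have := sp.cen_le h7 (g := t) fun e he => by rw [b, mem_bot] at he; simp [he]
      rw [b, mem_bot] at this
      rw [this, orderOf_one] at h9
      omega
    have := (nontrivial_iff_ne_bot _).2 b
    have := (isPGroup_pCore 2 H).center_nontrivial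
    obtain ⟨⟨y, hy⟩, y1⟩ := exists_ne (1 : center (pCore 2 H))
    exact ⟨y, ⟨y.2, fun a ha => congrArg Subtype.val (mem_center_iff.1 hy ⟨a, ha⟩)⟩,
      fun e => y1 (Subtype.ext (Subtype.ext e))⟩
  have sj : ∀ y ∈ A, ∃ x ∈ A, y = x * (t⁻¹ * x * t) := by
    let f : A → A := fun x => ⟨x * (t⁻¹ * x * t⁻¹⁻¹), A.mul_mem x.2 (nA.conj_mem _ x.2 _)⟩
    have inj : Function.Injective f := fun ⟨x, hx⟩ ⟨y, hy⟩ e => by
      have e' : x * (t⁻¹ * x * t⁻¹⁻¹) = y * (t⁻¹ * y * t⁻¹⁻¹) := congrArg Subtype.val e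
      have xi : x⁻¹ = x := inv_eq_of_mul_eq_one_right (a2 _ hx)
      have m : y * x⁻¹ ∈ A := A.mul_mem hy (A.inv_mem hx)
      have e1 : y⁻¹ * x = t⁻¹ * (y * x⁻¹) * t := by
        calc y⁻¹ * x = y⁻¹ * (x * (t⁻¹ * x * t⁻¹⁻¹)) * (t⁻¹ * x⁻¹ * t) := by group
          _ = _ := by rw [e']; group
      have yi : y⁻¹ = y := inv_eq_of_mul_eq_one_right (a2 _ hy)
      have := od _ (a2 _ m) (by
        rw [xi] at e1 ⊢
        rw [yi] at e1
        calc y * x * t = t * (t⁻¹ * (y * x) * t) := by group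
          _ = _ := by rw [← e1])
      exact Subtype.ext (mul_inv_eq_one.1 this).symm
    intro y hy
    obtain ⟨x, e⟩ := Finite.surjective_of_injective inj ⟨y, hy⟩
    exact ⟨x, x.2, by simpa [f] using (congrArg Subtype.val e).symm⟩
  have fx : ∀ v : V, (∀ x ∈ A, ρ x v = v) → v = 0 := by
    let W : Submodule (ZMod r) V :=
      { carrier := {v | ∀ x ∈ A, ρ x v = v}
        add_mem' := fun ha hb x hx => by rw [map_add, ha x hx, hb x hx]
        zero_mem' := fun x _ => map_zero _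
        smul_mem' := fun c v hv x hx => by rw [map_smul, hv x hx] }
    rcases h.irr W (fun g w hw x hx => by
      have := hw _ (nA.conj_mem x hx g⁻¹)
      rw [← Module.End.mul_apply, ← map_mul, show x * g = g * (g⁻¹ * x * g⁻¹⁻¹) by group, map_mul,
        Module.End.mul_apply, this]) with e | e
    · intro v hv
      have : v ∈ W := hv
      rwa [e, Submodule.mem_bot] at this
    · obtain ⟨y, hy, y1⟩ := A1
      refine absurd (h.inj (LinearMap.ext fun v => ?_)) y1
      have : v ∈ W := e ▸ Submodule.mem_top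
      rw [this y hy, map_one, Module.End.one_apply]
  have bc := hn A a2 fun x hx => nA.conj_mem x hx t
  refine Fpf.qd (fun v hv => ?_) (by rw [← pow_mul]; exact t9)
  by_contra v0
  obtain ⟨w, hw, w0, wt⟩ := exists_wt (ρ := ρ) h5 a2 (LinearMap.ker (ρ (t ^ 3) - 1)) (fun x hx u hu => by
    rw [LinearMap.mem_ker, LinearMap.sub_apply, Module.End.one_apply, sub_eq_zero] at hu ⊢
    rw [← Module.End.mul_apply, ← map_mul, bc x hx, map_mul, Module.End.mul_apply, hu])
    ⟨v, by rw [LinearMap.mem_ker, LinearMap.sub_apply, Module.End.one_apply, hv, sub_self], v0⟩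
  rw [LinearMap.mem_ker, LinearMap.sub_apply, Module.End.one_apply, sub_eq_zero] at hw
  have mv : ∀ g x : H, ρ x (ρ g w) = ρ g (ρ (g⁻¹ * x * g) w) := fun g x => by
    rw [← Module.End.mul_apply, ← Module.End.mul_apply, ← map_mul, ← map_mul]
    congr 2; group
  have cj : ∀ g, ∀ x ∈ A, g⁻¹ * x * g ∈ A := fun g x hx => by simpa using nA.conj_mem x hx g⁻¹
  have ap : ∀ x y : H, ρ (x * y) w = ρ x (ρ y w) := fun x y => by rw [map_mul, Module.End.mul_apply]
  -- an element on which the sign of `w` is negative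
  obtain ⟨y, hy, ey⟩ : ∃ y ∈ A, ρ y w = -w := by
    by_contra c
    push Not at c
    exact w0 (fx w fun x hx => (wt x hx).resolve_right (c x hx))
  have df : ∀ x ∈ A, ∀ g : H, ρ (x * (g⁻¹ * x * g)) w = -w →
      (ρ x w = w ∧ ρ x (ρ g w) = - ρ g w) ∨ (ρ x w = - w ∧ ρ x (ρ g w) = ρ g w) := fun x hx g e => by
    rw [ap] at e
    rw [mv]
    rcases wt _ (cj g x hx) with e1 | e1 <;> rw [e1] at e ⊢
    · exact Or.inr ⟨e, rfl⟩
    · rw [map_neg, neg_inj] at e
      exact Or.inl ⟨e, map_neg _ _⟩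
  obtain ⟨x, hx, rfl⟩ := sj y hy
  have d1 := df x hx t ey
  have d2 := df _ (cj t x hx) (t ^ 2) (by
    have : (t ^ 2)⁻¹ * (t⁻¹ * x * t) * t ^ 2 = x := by
      calc _ = (t ^ 3)⁻¹ * (x * t ^ 3) := by group
        _ = x := by rw [← bc x hx]; group
    rw [this, cA _ (cj t x hx) _ hx, ey])
  have z : w + (ρ t w + ρ (t ^ 2) w) = 0 := hf _ (by
    rw [map_add, map_add, ← ap, ← ap, ← pow_two, ← pow_succ', hw]; abel)
  refine w0 (wt_indep (ρ := ρ) h5 (A := A) (u := fun b : Bool => if b then ρ t w else ρ (t ^ 2) w) Finset.univ ?_ ?_ ?_)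
  · intro i _ x hx
    have k : ∀ g : H, ρ x (ρ g w) = ρ g w ∨ ρ x (ρ g w) = - ρ g w := fun g => by
      rw [mv]
      rcases wt _ (cj g x hx) with e | e <;> rw [e]
      · exact Or.inl rfl
      · exact Or.inr (map_neg _ _)
    cases i
    · exact k _
    · exact k _
  · intro i _
    cases i
    · exact ⟨_, cj t x hx, d2⟩
    · exact ⟨x, hx, d1⟩
  · simpa using z

end CL.AH.NineA2
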