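import Cfsg.Agent.FGS.AH.Rep
import Cfsg.Agent.FGS.AH.Lin

/-! The Frobenius group `5² : Q₈`: the reduction to the linear group. -/

set_option autoImplicit false

namespace CL.AH.Q25b

open Subgroup Cfsg

universe u

theorem of_map {G : Type*} [Group G] [Finite G] {H : Type*} [Group H] (π : G →* H) (hπ : Function.Surjective π)
    (h : Dens H) : Dens G := by
  have s := Function.surjInv_eq hπ
  have k : ∀ (y : H) (a : π.ker), π (Function.surjInv hπ y * a) = y := fun y a => by rw [map_mul, s, a.2, mul_one]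
  have e := Nat.card_le_card_of_injective (α := π.ker × {y : H // 4 ∣ orderOf y}) (β := {g : G // 4 ∣ orderOf g})
    (fun x => ⟨Function.surjInv hπ x.2 * x.1, x.2.2.trans (by
      conv_lhs => rw [← k x.2 x.1]
      exact orderOf_map_dvd π _)⟩) fun x y e => by
    have e1 := congrArg Subtype.val e
    have e2 : x.2.1 = y.2.1 := by rw [← k x.2 x.1, ← k y.2 y.1]; exact congrArg π e1
    exact Prod.ext (Subtype.ext (mul_left_cancel (by simpa only [e2] using e1))) (Subtype.ext e2)
  have c := π.ker.card_mul_index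
  rw [index_ker, MonoidHom.range_eq_top.2 hπ, card_top] at c
  rw [Nat.card_prod] at e
  unfold Dens at h ⊢
  nlinarith [Nat.mul_le_mul_left (Nat.card π.ker) h]

theorem q25 (dens : ∀ {r : ℕ} [Fact r.Prime], r = 5 → ∀ {H : Type u} [Group H] [Finite H] {V : Type u} [AddCommGroup V]
      [Module (ZMod r) V] [Finite V] (ρ : Representation (ZMod r) H V), Nat.card V = 25 → Rat H →
      Function.Injective ρ → Nat.card H ≤ 24 → (∀ v : V, ∃ g : H, ρ g v = (2 : ZMod r) • v) → Dens H)
    {G : Type u} [Group G] [Finite G] (hr : Rat G) (N : Subgroup G) [N.Normal]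
    (hc : ∀ a ∈ N, ∀ b ∈ N, a * b = b * a) (hp : ∀ a ∈ N, a ^ 5 = 1) (h25 : Nat.card N = 25) {y : G} (hy : y ∈ N)
    (hle : ∀ g : G, g * y = y * g → g ∈ N) : Dens G := by
  have := Fact.mk Nat.prime_five
  obtain ⟨V, _, _, _, σ, e, ei, eN, es, e0, ea, en, eσ⟩ := exists_rep (p := 5) N hc hp
  have le : N ≤ σ.ker := fun a ha => by
    ext v
    exact ei (by rw [eσ, hc a ha _ (eN v), mul_inv_cancel_right]; rfl)
  have cy : cz y = 25 := by
    rw [← h25, cz, show centralizer ({y} : Set G) = N from le_antisymm (fun g hg => hle g (Bx.mc.1 hg))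
      fun g hg => Bx.mc.2 (hc g hg y hy)]
  have c1 := card_conj_mul_cz y
  have c2 := card_eq_card_quotient_mul_card_subgroup N
  have c3 : Nat.card {z : G // ∃ g : G, g * y * g⁻¹ = z} ≤ 24 := by
    by_cases y1 : y = 1
    · rw [y1, cz_one] at c1
      have := Nat.eq_of_mul_eq_mul_right Nat.card_pos (c1.trans (one_mul _).symm)
      rw [y1, this]; omega
    · have := Set.ncard_lt_ncard (s := {z : G | ∃ g : G, g * y * g⁻¹ = z}) (t := N) ⟨by
        rintro _ ⟨g, rfl⟩; exact Subgroup.Normal.conj_mem ‹_› y hy g,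
        fun k => by obtain ⟨g, hg⟩ := k N.one_mem; exact y1 (conj_eq_one_iff.1 hg)⟩
      change Nat.card {z : G // ∃ g : G, g * y * g⁻¹ = z} < Nat.card N at this
      omega
  refine of_map _ (QuotientGroup.mk'_surjective σ.ker) (dens rfl (QuotientGroup.lift σ.ker σ le_rfl) ?_
    (hr.map _ (QuotientGroup.mk'_surjective _)) ((injective_iff_map_eq_one _).2 fun g k => ?_) ?_ fun v => ?_)
  · rw [← h25]
    exact Nat.card_eq_of_bijective (fun v => ⟨e v, eN v⟩) ⟨fun v w k => ei (congrArg Subtype.val k),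
      fun a => (es a a.2).imp fun _ => Subtype.ext⟩
  · obtain ⟨g, rfl⟩ := QuotientGroup.mk_surjective g
    exact (QuotientGroup.eq_one_iff g).2 k
  · have : Nat.card (G ⧸ σ.ker) ≤ Nat.card (G ⧸ N) := Nat.le_of_dvd Nat.card_pos (index_dvd_of_le le)
    rw [cy] at c1
    rw [h25] at c2
    omega
  · obtain ⟨g, hg⟩ := hr (e v) 2 (Nat.Coprime.coprime_dvd_right (orderOf_dvd_of_pow_eq_one (hp _ (eN v))) (by decide))
    exact ⟨g, ei (((eσ g v).trans hg).trans (en 2 v).symm)⟩

end CL.AH.Q25b
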