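import Cfsg.Agent.FGS.AH.Bas

/-! A centralizer of order three; a centralizer of order two. -/

set_option autoImplicit false

namespace CL.AH.SylB

open Subgroup Cfsg

variable {G : Type*} [Group G] [Finite G]

theorem mem_zp {a b : G} {p : ℕ} (hp : p.Prime) (ha : orderOf a = p) (hb : b ∈ zpowers a) (b1 : b ≠ 1) : a ∈ zpowers b := by
  have := (Nat.dvd_prime hp).1 (ha ▸ orderOf_dvd_of_mem_zpowers hb)
  refine (eq_of_le_of_card_ge (zpowers_le.2 hb) ?_).ge (mem_zpowers a)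
  rw [Nat.card_zpowers, Nat.card_zpowers, ha, this.resolve_left (mt orderOf_eq_one_iff.1 b1)]

theorem dvd_of_zp {a b : G} (h : a ∈ zpowers b) : cz b ∣ cz a := by
  obtain ⟨k, rfl⟩ := h
  exact cz_dvd_cz fun g e => (Commute.zpow_right e k).eq

theorem three_cz {x : G} (hx : cz x = 3) (y : G) (hy : 3 ∣ cz y) : cz y = 3 ∨ cz y = Nat.card G := by
  have p3 := Nat.prime_three
  have := Fact.mk p3
  rcases (Nat.dvd_prime p3).1 (hx ▸ orderOf_dvd_cz (rfl : x * x = x * x)) with o | o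
  · rw [orderOf_eq_one_iff.1 o, cz_one] at hx
    exact .inl (Nat.dvd_antisymm (hx ▸ cz_dvd_card y) hy)
  obtain ⟨u, ou, cu⟩ := exists_ord_of_dvd_cz p3 hy
  have pg : ∀ a : G, orderOf a = 3 → IsPGroup 3 (zpowers a) := fun a e =>
    IsPGroup.of_card (n := 1) (by rw [Nat.card_zpowers, e, pow_one])
  obtain ⟨P, hP⟩ := (pg x o).exists_le_sylow
  obtain ⟨Q, hQ⟩ := (pg u ou).exists_le_sylow
  obtain ⟨g, rfl⟩ := MulAction.exists_smul_eq G Q P
  have xP := hP (mem_zpowers x)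
  have uP : g * u * g⁻¹ ∈ (g • Q : Sylow 3 G) := ⟨u, hQ (mem_zpowers u), rfl⟩
  generalize g • Q = P at xP uP
  have x1 : x ≠ 1 := fun e => by simp [e] at o
  have : Nontrivial P := ⟨⟨⟨x, xP⟩, 1, fun e => x1 (congrArg Subtype.val e)⟩⟩
  have := P.2.center_nontrivial
  obtain ⟨⟨c, hc⟩, c1⟩ := exists_ne (1 : center P)
  have cc : ∀ a ∈ (P : Subgroup G), a * c = c * a := fun a ha =>
    congrArg Subtype.val (mem_center_iff.1 hc ⟨a, ha⟩)
  obtain ⟨k, hk⟩ := mem_zp p3 o (mem_zpowers_of_cz (hx.trans o.symm) (cc x xP).symm)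
    fun e => c1 (Subtype.ext (Subtype.ext e))
  have m := mem_zpowers_of_cz (hx.trans o.symm) (y := g * u * g⁻¹) (hk ▸ (Commute.zpow_right (cc _ uP) k).eq)
  have d := dvd_of_zp (mem_zp p3 o m fun e => by
    have : u = 1 := by simpa using e
    simp [this] at ou)
  rw [cz_conj, hx] at d
  have cu3 : cz u = 3 := Nat.dvd_antisymm d (ou ▸ orderOf_dvd_cz rfl)
  by_cases e : y = 1
  · exact .inr (e ▸ cz_one)
  · exact .inl (Nat.dvd_antisymm (cu3 ▸ dvd_of_zp (mem_zp p3 ou (mem_zpowers_of_cz (cu3.trans ou.symm) cu.symm) e)) hy)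

theorem sym3 (h : AH G) {x : G} (hx : cz x = 2) : Nonempty (G ≃* Equiv.Perm (Fin 3)) := by
  classical
  have p2 := Nat.prime_two
  have n2 : Nat.card G ≠ 2 := fun e => by
    have : Nontrivial G := Finite.one_lt_card_iff_nontrivial.1 (by omega)
    obtain ⟨y, y1⟩ := exists_ne (1 : G)
    obtain ⟨g, hg⟩ := h y 1 (by
      rw [cz_one, e]
      refine ((Nat.dvd_prime p2).1 (e ▸ cz_dvd_card y)).resolve_left fun k => y1 ?_
      exact orderOf_eq_one_iff.1 (Nat.dvd_one.1 (k ▸ orderOf_dvd_cz rfl)))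
    exact y1 (by simpa using hg)
  have x1 : x ≠ 1 := fun e => n2 (by rw [← cz_one, ← e, hx])
  have o : orderOf x = 2 := ((Nat.dvd_prime p2).1 (hx ▸ orderOf_dvd_cz rfl)).resolve_left (mt orderOf_eq_one_iff.1 x1)
  have xx : x * x = 1 := by rw [← pow_two, ← o, pow_orderOf_eq_one]
  set I : Set G := {y | ∃ g, g * x * g⁻¹ = y} with hI
  have cI : I.ncard * 2 = Nat.card G := hx ▸ card_conj_mul_cz x
  have xI : x ∈ I := ⟨1, by simp⟩
  have jI : ∀ i ∈ I, ∀ g, g * i * g⁻¹ ∈ I := by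
    rintro _ ⟨k, rfl⟩ g
    exact ⟨g * k, by group⟩
  have cm : ∀ i ∈ I, i ≠ 1 ∧ i * i = 1 ∧ ∀ y, y * i = i * y → y = 1 ∨ y = i := by
    rintro _ ⟨g, rfl⟩
    refine ⟨by simpa using x1, by rw [conj_mul, xx]; simp, fun y e => ?_⟩
    have o' : orderOf (g * x * g⁻¹) = 2 := ((MulAut.conj g).orderOf_eq x).trans o
    have m := mem_zpowers_of_cz ((cz_conj g x).trans (hx.trans o'.symm)) e
    rw [mem_zpowers_iff_mem_range_orderOf, o'] at m
    obtain ⟨k, hk, rfl⟩ := Finset.mem_image.1 m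
    have := Finset.mem_range.1 hk
    interval_cases k <;> simp
  have iv : ∀ i ∈ I, i⁻¹ = i := fun i hi => inv_eq_of_mul_eq_one_right (cm i hi).2.1
  have nI : ∀ i ∈ I, ∀ j ∈ I, i * j ∉ I := fun i hi j hj m => by
    rcases (cm j hj).2.2 i (by rw [← iv _ m, mul_inv_rev, iv i hi, iv j hj]) with e | e
    · exact (cm i hi).1 e
    · exact (cm _ m).1 (e ▸ (cm j hj).2.1)
  have im : ∀ i ∈ I, ∀ k ∉ I, ∃ j ∈ I, i * j = k := fun i hi k hk => by
    have : (i * ·) '' I = Iᶜ := Set.eq_of_subset_of_ncard_le (by rintro _ ⟨j, hj, rfl⟩; exact nI i hi j hj) (by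
      rw [Set.ncard_image_of_injective _ (mul_right_injective i)]
      have := Set.ncard_add_ncard_compl I
      omega)
    exact this.ge hk
  have inv : ∀ i ∈ I, ∀ k ∉ I, i * k * i⁻¹ = k⁻¹ := fun i hi k hk => by
    obtain ⟨j, hj, rfl⟩ := im i hi k hk
    rw [mul_inv_rev, iv j hj, ← mul_assoc, (cm i hi).2.1, one_mul]
  let K : Subgroup G :=
    { carrier := Iᶜ
      one_mem' := fun m => (cm 1 m).1 rfl
      mul_mem' := fun {a b} ha hb => by
        obtain ⟨i, hi, rfl⟩ := im x xI a ha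
        obtain ⟨j, hj, rfl⟩ := im x xI b hb
        have := nI _ (jI _ hi x) j hj
        rwa [iv x xI, mul_assoc] at this
      inv_mem' := fun {a} ha m => ha (by rw [← inv_inv a, iv _ m]; exact m) }
  have ab : ∀ a ∉ I, ∀ b ∉ I, a * b = b * a := fun a ha b hb => by
    have := inv x xI _ (K.mul_mem ha hb)
    rw [← conj_mul, inv x xI a ha, inv x xI b hb, ← mul_inv_rev] at this
    exact (inv_injective this).symm
  have cK : Nat.card K = I.ncard := by
    have := Set.ncard_add_ncard_compl I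
    change Iᶜ.ncard = _
    omega
  have czK : ∀ k ∉ I, k ≠ 1 → cz k = Nat.card K := fun k hk k1 => by
    rw [cz, show centralizer {k} = K from le_antisymm (fun g hg m => ?_)
      fun g hg => mem_centralizer_singleton_iff.2 (ab g hg k hk)]
    rcases (cm g m).2.2 k (mem_centralizer_singleton_iff.1 hg).symm with e | e
    exacts [k1 e, hk (e ▸ m)]
  obtain ⟨k, hk, k1⟩ : ∃ k ∉ I, k ≠ 1 := by
    by_contra! e
    rw [← cK, (eq_bot_iff_forall K).2 e, card_bot] at cI
    exact n2 cI.symm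
  have kk : k ≠ k⁻¹ := fun e => by
    rcases (cm x xI).2.2 k (by rw [← mul_inv_eq_iff_eq_mul.1 ((inv x xI k hk).trans e.symm)]) with e | e
    exacts [k1 e, hk (e ▸ xI)]
  have c3 : Iᶜ.ncard = 3 := Set.ncard_eq_three.2 ⟨1, k, k⁻¹, k1.symm, (inv_ne_one.2 k1).symm, kk, Set.ext fun a => ⟨fun ha => by
    by_cases e : a = 1
    · exact .inl e
    obtain ⟨g, rfl⟩ := h k a ((czK k hk k1).trans (czK a ha e).symm)
    by_cases m : g ∈ I
    · exact .inr (.inr (inv g m k hk))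
    · exact .inr (.inl (by rw [ab g m k hk, mul_inv_cancel_right])), by
    rintro (rfl | rfl | rfl)
    exacts [K.one_mem, hk, K.inv_mem hk]⟩⟩
  have c6 : Nat.card G = 6 := by
    have := Set.ncard_add_ncard_compl I
    omega
  have cq : Nat.card (G ⧸ zpowers x) = 3 := by
    have := (zpowers x).card_mul_index
    rw [Nat.card_zpowers, o, c6] at this
    change (zpowers x).index = 3
    omega
  let e := Finite.equivFinOfCardEq cq
  refine ⟨(MulEquiv.ofBijective (MulAction.toPermHom G (G ⧸ zpowers x)) ((Nat.bijective_iff_injective_and_card _).2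
    ⟨?_, ?_⟩)).trans e.permCongrHom⟩
  · rw [← MonoidHom.ker_eq_bot_iff, ← normalCore_eq_ker, eq_bot_iff_forall]
    intro y hy
    have zp : ∀ y ∈ zpowers x, y = 1 ∨ y = x := by
      rintro _ ⟨n, rfl⟩
      exact (cm x xI).2.2 _ (Commute.zpow_left rfl n).eq
    refine (zp y (normalCore_le _ hy)).resolve_right fun e => ?_
    rcases zp _ (hy k) with f | f
    · exact x1 (by simpa [e] using f)
    · rcases (cm x xI).2.2 k (mul_inv_eq_iff_eq_mul.1 (e ▸ f)) with e | e
      exacts [k1 e, hk (e ▸ xI)]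
  · rw [Nat.card_perm, cq, c6]; rfl

end CL.AH.SylB
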